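import Mathlib
import Cfsg.Agent.Lib.Helper68.Half.Defs

/-!
# HALF (= S3371), package [SD]

A semidihedral (quasi-dihedral) group has a cyclic subgroup `C` of index `2`, a central
involution `z ∈ C` that is a power of every non-identity element of `C`, every element `t`
outside `C` is conjugate to `t z`, and there are exactly `2 ^ k` involutions outside `C`
(`|G| = 2 ^ (k + 2)`).
-/

set_option autoImplicit false

universe v

namespace Cfsg.Agent.Lib.Helper83.Half

open Cfsg.Agent.Lib.Helper68.Half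

theorem pkgSD : PkgSD.{v} := by
  intro G _ _ hQD
  obtain ⟨n, hn, hcard, x, y, hx, hy, hconj⟩ := hQD
  obtain ⟨k', rfl⟩ : ∃ k', n = k' + 3 := ⟨n - 3, by omega⟩
  have hn1 : k' + 3 - 1 = k' + 2 := by omega
  rw [hn1] at hconj
  obtain ⟨r, hr⟩ : ∃ r : ℕ, 2 ^ k' = r + 1 :=
    ⟨2 ^ k' - 1, by have := Nat.one_le_two_pow (n := k'); omega⟩
  have hM : 2 ^ (k' + 2) = 4 * r + 4 := by rw [pow_add, hr]; ring
  have hxN : orderOf x = 8 * r + 8 := by rw [hx, pow_add, hr]; ring
  have he : 2 ^ (k' + 2) - 1 = 4 * r + 3 := by rw [hM]; omega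
  rw [he] at hconj
  have hcardG : Nat.card G = 2 * (8 * r + 8) := by rw [hcard, pow_add, pow_add, hr]; ring
  have hxpow : x ^ (8 * r + 8) = 1 := by rw [← hxN]; exact pow_orderOf_eq_one x
  have hy2 : y * y = 1 := by rw [← pow_two, ← hy]; exact pow_orderOf_eq_one y
  have hyinv : y⁻¹ = y := inv_eq_of_mul_eq_one_left hy2
  -- conjugation of powers of `x` by `y`
  have hcp : ∀ i : ℕ, y * x ^ i * y = x ^ ((4 * r + 3) * i) := by
    intro i
    have h := conj_pow (a := y) (b := x) (i := i)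
    rw [hconj, hyinv, ← pow_mul] at h
    exact h.symm
  have hcp2 : ∀ i : ℕ, x ^ i * y = y * x ^ ((4 * r + 3) * i) := by
    intro i
    rw [← hcp i]
    simp only [← mul_assoc, hy2, one_mul]
  have hcp3 : ∀ i : ℕ, y * x ^ i = x ^ ((4 * r + 3) * i) * y := by
    intro i
    rw [← hcp i]
    simp only [mul_assoc, hy2, mul_one]
  -- the central involution
  have hzz : x ^ (4 * r + 4) * x ^ (4 * r + 4) = 1 := by
    rw [← pow_add]
    have : 4 * r + 4 + (4 * r + 4) = 8 * r + 8 := by ring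
    rw [this]; exact hxpow
  have hz1 : x ^ (4 * r + 4) ≠ 1 := by
    intro h
    have h1 := orderOf_dvd_of_pow_eq_one h
    rw [hxN] at h1
    have h2 := Nat.le_of_dvd (by omega) h1
    omega
  have hyz : y * x ^ (4 * r + 4) = x ^ (4 * r + 4) * y := by
    rw [hcp3 (4 * r + 4)]
    congr 1
    have h1 : x ^ ((4 * r + 3) * (4 * r + 4)) * x ^ (4 * r + 4) = 1 := by
      rw [← pow_add]
      have : (4 * r + 3) * (4 * r + 4) + (4 * r + 4) = (8 * r + 8) * (2 * r + 2) := by ring
      rw [this, pow_mul, hxpow, one_pow]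
    calc x ^ ((4 * r + 3) * (4 * r + 4)) = (x ^ (4 * r + 4))⁻¹ := eq_inv_of_mul_eq_one_left h1
      _ = x ^ (4 * r + 4) := inv_eq_of_mul_eq_one_left hzz
  -- `y` is not a power of `x`
  have hyC : y ∉ Subgroup.zpowers x := by
    intro hyC
    obtain ⟨k, rfl⟩ := Subgroup.mem_zpowers_iff.1 hyC
    have hcomm : x ^ k * x = x * x ^ k := ((Commute.refl x).zpow_left k).eq
    have h1 : x ^ (4 * r + 3) = x := by
      rw [← hconj, hcomm, mul_assoc, mul_inv_cancel, mul_one]
    have h2 : x ^ (4 * r + 2) = 1 := by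
      have h3 : x ^ (4 * r + 2) * x = 1 * x := by
        rw [← pow_succ, one_mul]; exact h1
      exact mul_right_cancel h3
    have h4 := orderOf_dvd_of_pow_eq_one h2
    rw [hxN] at h4
    have h5 := Nat.le_of_dvd (by omega) h4
    omega
  have hindex : (Subgroup.zpowers x).index = 2 := by
    have h1 := Subgroup.card_mul_index (Subgroup.zpowers x)
    rw [Nat.card_zpowers, hxN, hcardG] at h1
    have h2 : (8 * r + 8) * (Subgroup.zpowers x).index = (8 * r + 8) * 2 := by
      rw [h1]; ring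
    exact Nat.eq_of_mul_eq_mul_left (by omega) h2
  -- elements outside `C`
  have hout : ∀ t : G, t ∉ Subgroup.zpowers x → ∃ m : ℕ, m < 8 * r + 8 ∧ t = y * x ^ m := by
    intro t ht
    have h1 : y * t ∈ Subgroup.zpowers x :=
      (Subgroup.mul_mem_iff_of_index_two hindex).2 (iff_of_false hyC ht)
    obtain ⟨m, hm⟩ := (Submonoid.mem_powers_iff _ _).1 (mem_powers_iff_mem_zpowers.2 h1)
    refine ⟨m % (8 * r + 8), Nat.mod_lt _ (by omega), ?_⟩
    rw [← hxN, pow_mod_orderOf, hm, ← mul_assoc, hy2, one_mul]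
  have hsq : ∀ m : ℕ, (y * x ^ m) * (y * x ^ m) = x ^ ((4 * r + 4) * m) := by
    intro m
    have h1 : (y * x ^ m) * (y * x ^ m) = (y * x ^ m * y) * x ^ m := by
      simp only [mul_assoc]
    rw [h1, hcp m, ← pow_add]
    congr 1
    ring
  refine ⟨k' + 2, Subgroup.zpowers x, x ^ (4 * r + 4), ?_, ?_, ?_⟩
  · rw [hcard]
  · refine ⟨hindex, ?_, ?_, hz1, hzz, ?_, ?_⟩
    · exact Subgroup.pow_mem _ (Subgroup.mem_zpowers x) _
    · rw [Subgroup.mem_center_iff]
      intro g
      by_cases hg : g ∈ Subgroup.zpowers x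
      · obtain ⟨k, rfl⟩ := Subgroup.mem_zpowers_iff.1 hg
        exact (((Commute.refl x).zpow_left k).pow_right (4 * r + 4)).eq
      · obtain ⟨m, -, rfl⟩ := hout g hg
        rw [mul_assoc, ← pow_add, add_comm, pow_add, ← mul_assoc, hyz, mul_assoc]
    · intro c hc hc1
      obtain ⟨i, rfl⟩ : ∃ i : ℕ, x ^ i = c :=
        (Submonoid.mem_powers_iff _ _).1 (mem_powers_iff_mem_zpowers.2 hc)
      have hi0 : i ≠ 0 := by
        rintro rfl
        exact hc1 (pow_zero x)
      obtain ⟨a, b, hb, rfl⟩ := Nat.exists_eq_two_pow_mul_odd hi0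
      have ha : a < k' + 3 := by
        by_contra hcon
        push Not at hcon
        apply hc1
        obtain ⟨d, rfl⟩ := Nat.exists_eq_add_of_le hcon
        have h1 : 2 ^ (k' + 3 + d) * b = (8 * r + 8) * (2 ^ d * b) := by
          rw [← hxN, hx]; ring
        rw [h1, pow_mul, hxpow, one_pow]
      refine ⟨2 ^ (k' + 2 - a), ?_⟩
      rw [← pow_mul]
      have h2 : 2 ^ a * b * 2 ^ (k' + 2 - a) = (4 * r + 4) * b := by
        rw [← hM]
        have h3 : k' + 2 = a + (k' + 2 - a) := by omega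
        calc 2 ^ a * b * 2 ^ (k' + 2 - a) = 2 ^ (a + (k' + 2 - a)) * b := by ring
          _ = 2 ^ (k' + 2) * b := by rw [← h3]
      rw [h2, pow_mul]
      obtain ⟨s, rfl⟩ := hb
      rw [pow_succ, pow_mul, pow_two, hzz, one_pow, one_mul]
    · intro t ht _
      obtain ⟨m, -, rfl⟩ := hout t ht
      refine ⟨x ^ (2 * r + 2), ?_⟩
      rw [mul_inv_eq_iff_eq_mul, ← mul_assoc, hcp2 (2 * r + 2)]
      simp only [mul_assoc, ← pow_add]
      congr 1
      have h1 : (4 * r + 3) * (2 * r + 2) + m = (m + (4 * r + 4 + (2 * r + 2))) + (8 * r + 8) * r := by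
        ring
      rw [h1, pow_add (a := x) (m := m + (4 * r + 4 + (2 * r + 2))), pow_mul, hxpow, one_pow,
        mul_one]
      congr 1
      ring
  · -- the count
    have hmemC : ∀ m : ℕ, y * x ^ m ∉ Subgroup.zpowers x := by
      intro m hmem
      exact hyC ((Subgroup.mul_mem_cancel_right _
        (Subgroup.pow_mem _ (Subgroup.mem_zpowers x) m)).1 hmem)
    have hsq1 : ∀ i : ℕ, (y * x ^ (2 * i)) * (y * x ^ (2 * i)) = 1 := by
      intro i
      rw [hsq]
      have : (4 * r + 4) * (2 * i) = (8 * r + 8) * i := by ring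
      rw [this, pow_mul, hxpow, one_pow]
    have hbij : Function.Bijective
        (fun i : Fin (4 * r + 4) =>
          (⟨y * x ^ (2 * (i : ℕ)), hmemC _, hsq1 _⟩ :
            {t : G // t ∉ Subgroup.zpowers x ∧ t * t = 1})) := by
      constructor
      · intro i j hij
        have h1 : y * x ^ (2 * (i : ℕ)) = y * x ^ (2 * (j : ℕ)) := congrArg Subtype.val hij
        have h2 : x ^ (2 * (i : ℕ)) = x ^ (2 * (j : ℕ)) := mul_left_cancel h1
        have h3 : 2 * (i : ℕ) = 2 * (j : ℕ) := by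
          apply pow_injOn_Iio_orderOf (x := x)
          · rw [Set.mem_Iio, hxN]; have := i.2; omega
          · rw [Set.mem_Iio, hxN]; have := j.2; omega
          · exact h2
        apply Fin.ext
        omega
      · rintro ⟨t, ht, htt⟩
        obtain ⟨m, hm, rfl⟩ := hout t ht
        rw [hsq] at htt
        have h1 := orderOf_dvd_of_pow_eq_one htt
        rw [hxN] at h1
        have h2 : (4 * r + 4) * 2 ∣ (4 * r + 4) * m := by
          have : (4 * r + 4) * 2 = 8 * r + 8 := by ring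
          rw [this]; exact h1
        have h3 : 2 ∣ m := (Nat.mul_dvd_mul_iff_left (by omega)).1 h2
        obtain ⟨i, rfl⟩ := h3
        exact ⟨⟨i, by omega⟩, rfl⟩
    rw [← Nat.card_congr (Equiv.ofBijective _ hbij), Nat.card_fin, hM]

end Cfsg.Agent.Lib.Helper83.Half
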